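import Cfsg.Agent.H6.Four
import Cfsg.Agent.H6.Borel
import Cfsg.Agent.H1.SLTwoElements
import Cfsg.Agent.S0800

/-!
Recognising `PSL₂(9)` among the two-dimensional projective special linear groups over fields of odd order
by an elementary abelian subgroup of order `9` which is not contained in a larger abelian subgroup.
-/

set_option autoImplicit false

open Matrix MatrixGroups

namespace Cfsg.Agent.H85.C6

/-- A group of order nine and exponent three is not cyclic. -/
theorem not_isCyclic_of_exponent_three {G : Type*} [Group G] [Finite G] (R : Subgroup G)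
    (hR : Nat.card ↥R = 9) (h3 : ∀ r ∈ R, r ^ 3 = 1) : ¬ IsCyclic ↥R := by
  intro h
  obtain ⟨g, hg⟩ := h.exists_ofOrder_eq_natCard
  have h1 : g ^ 3 = 1 := Subtype.ext (by simpa using h3 _ g.2)
  have := orderOf_dvd_of_pow_eq_one h1
  rw [hg, hR] at this
  omega

variable {F : Type*} [Field F] [Fintype F]

/-- Away from characteristic three, every `3`-subgroup of `PSL₂` is cyclic. -/
theorem isCyclic_three_subgroup (p : ℕ) [Fact p.Prime] [CharP F p] (hp : p ≠ 3)
    (R : Subgroup PSL(2, F)) (hR : IsPGroup 3 ↥R) : IsCyclic ↥R := by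
  haveI : Fact (Nat.Prime 3) := ⟨Nat.prime_three⟩
  obtain ⟨P⟩ : Nonempty (Sylow 3 SL(2, F)) := inferInstance
  haveI := Cfsg.Agent.H1.isCyclic_of_isPGroup_SL2 p 3 (by norm_num) (fun h => hp h.symm)
    (P : Subgroup SL(2, F)) P.isPGroup'
  set P' : Sylow 3 PSL(2, F) := P.mapSurjective (H6.π_surjective (F := F)) with hP'
  haveI : IsCyclic ↥(P' : Subgroup PSL(2, F)) := by
    have he : (P' : Subgroup PSL(2, F)) = (P : Subgroup SL(2, F)).map H6.π := rfl
    rw [he]
    exact isCyclic_of_surjective ((H6.π (F := F)).subgroupMap (P : Subgroup SL(2, F)))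
      ((H6.π (F := F)).subgroupMap_surjective _)
  obtain ⟨Q, hQ⟩ := hR.exists_le_sylow
  haveI : IsCyclic ↥(Q : Subgroup PSL(2, F)) :=
    isCyclic_of_surjective (Sylow.equiv P' Q).toMonoidHom (Sylow.equiv P' Q).surjective
  exact isCyclic_of_injective (Subgroup.inclusion hQ) (Subgroup.inclusion_injective hQ)

/-- An elementary abelian subgroup of order nine in no bigger abelian subgroup forces `q = 9`. -/
theorem card_field_eq_nine (hodd : Odd (Fintype.card F)) (R : Subgroup PSL(2, F))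
    (hR : Nat.card ↥R = 9) (h3 : ∀ r ∈ R, r ^ 3 = 1)
    (hA : ∀ A : Subgroup PSL(2, F), R ≤ A → (∀ a ∈ A, ∀ b ∈ A, a * b = b * a) → Nat.card ↥A ≤ 9) :
    Fintype.card F = 9 := by
  haveI : Fact (Nat.Prime 3) := ⟨Nat.prime_three⟩
  obtain ⟨p, hp⟩ := CharP.exists F
  haveI : Fact p.Prime := ⟨CharP.char_is_prime F p⟩
  have hR3 : IsPGroup 3 ↥R := IsPGroup.of_card (n := 2) (by rw [hR]; norm_num)
  have hp3 : p = 3 := by
    by_contra h
    exact not_isCyclic_of_exponent_three R hR h3 (isCyclic_three_subgroup p h R hR3)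
  subst hp3
  obtain ⟨n, -, hn⟩ := FiniteField.card F 3
  have hn1 : 1 ≤ (n : ℕ) := n.2
  have h2c := H6.card_psl2_odd (F := F) (H6.two_ne_of_odd rfl hodd) rfl
  have hU3 : Nat.card ↥(H6.Uinf F) = 3 ^ (n : ℕ) := by rw [H6.card_Uinf, hn]
  -- the unipotent subgroup is a Sylow `3`-subgroup
  have hfac : (Nat.card PSL(2, F)).factorization 3 = (n : ℕ) := by
    have h := congrArg (fun k : ℕ => k.factorization 3) h2c
    have hpow : 1 ≤ 3 ^ (n : ℕ) := Nat.one_le_pow _ _ (by norm_num)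
    have h9 : 9 ≤ (3 ^ (n : ℕ)) ^ 2 := by
      calc 9 = 3 ^ 2 := by norm_num
        _ ≤ (3 ^ (n : ℕ)) ^ 2 := Nat.pow_le_pow_left (Nat.le_self_pow (by omega) 3) 2
    have hne : (3 ^ (n : ℕ)) ^ 2 - 1 ≠ 0 := by omega
    simp only [hn] at h
    rw [Nat.factorization_mul (by norm_num) Nat.card_pos.ne',
      Nat.factorization_mul (by positivity) hne] at h
    have hnd : ¬ 3 ∣ (3 ^ (n : ℕ)) ^ 2 - 1 := by
      have : 3 ∣ (3 ^ (n : ℕ)) ^ 2 := dvd_pow (dvd_pow_self 3 (by omega)) (by norm_num)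
      omega
    simpa [Nat.factorization_eq_zero_of_not_dvd hnd,
      Nat.factorization_eq_zero_of_not_dvd (show ¬ 3 ∣ 2 by norm_num),
      Nat.prime_three.factorization_self] using h
  let P : Sylow 3 PSL(2, F) := Sylow.ofCard (H6.Uinf F) (by rw [hU3, hfac])
  have hPc : ∀ a ∈ (P : Subgroup PSL(2, F)), ∀ b ∈ (P : Subgroup PSL(2, F)), a * b = b * a := by
    intro a ha b hb
    have ha' : a ∈ H6.Uinf F := ha
    have hb' : b ∈ H6.Uinf F := hb
    obtain ⟨s, rfl⟩ := H6.mem_Uinf.1 ha'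
    obtain ⟨t, rfl⟩ := H6.mem_Uinf.1 hb'
    rw [← map_mul, ← map_mul, ← H6.up_add, ← H6.up_add, add_comm]
  obtain ⟨Q, hQ⟩ := hR3.exists_le_sylow
  have hQc : ∀ a ∈ (Q : Subgroup PSL(2, F)), ∀ b ∈ (Q : Subgroup PSL(2, F)), a * b = b * a := by
    intro a ha b hb
    set e := Sylow.equiv P Q
    have := congrArg (fun w => ((e w : ↥(Q : Subgroup PSL(2, F))) : PSL(2, F)))
      (Subtype.ext (hPc _ (e.symm ⟨a, ha⟩).2 _ (e.symm ⟨b, hb⟩).2) :
        e.symm ⟨a, ha⟩ * e.symm ⟨b, hb⟩ = e.symm ⟨b, hb⟩ * e.symm ⟨a, ha⟩)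
    simpa using this
  have hcQ : Nat.card ↥(Q : Subgroup PSL(2, F)) = 3 ^ (n : ℕ) := by
    rw [Q.card_eq_multiplicity, hfac]
  have hle := hA _ hQ hQc
  have hdvd := Subgroup.card_dvd_of_le hQ
  rw [hR, hcQ] at hdvd
  rw [hcQ] at hle
  have hge := Nat.le_of_dvd (pow_pos (by norm_num) _) hdvd
  omega

/-- `PSL₂(9)` has no element of order twenty. -/
theorem orderOf_ne_twenty (h9 : Fintype.card F = 9) (x : PSL(2, F)) : orderOf x ≠ 20 := by
  intro hx
  obtain ⟨p, hp⟩ := CharP.exists F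
  haveI : Fact p.Prime := ⟨CharP.char_is_prime F p⟩
  obtain rfl : p = 3 := by
    obtain ⟨n, hpr, hn⟩ := FiniteField.card F p
    rw [h9] at hn
    have : p ∣ 3 ^ 2 := by
      rw [show (3 : ℕ) ^ 2 = 9 by norm_num, hn]
      exact dvd_pow_self p n.ne_zero
    exact (Nat.prime_dvd_prime_iff_eq hpr Nat.prime_three).1 (hpr.dvd_of_dvd_pow this)
  obtain ⟨g, rfl⟩ := H6.π_surjective x
  have h20 : H6.π (g ^ 20) = 1 := by rw [map_pow, ← hx, pow_orderOf_eq_one]
  have h40 : orderOf g ∣ 40 := by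
    refine orderOf_dvd_of_pow_eq_one ?_
    rcases H6.π_eq_one_iff.1 h20 with h | h
    · rw [show (40 : ℕ) = 20 * 2 by norm_num, pow_mul, h, one_pow]
    · rw [show (40 : ℕ) = 20 * 2 by norm_num, pow_mul, h]; simp
  have hco : Nat.Coprime (orderOf g) 3 :=
    Nat.Coprime.coprime_dvd_left h40 (by norm_num)
  have hd : 20 ∣ orderOf g := hx ▸ orderOf_map_dvd H6.π g
  rcases Cfsg.Agent.S0800.result h9 3 g hco with h | h <;>
    have := hd.trans h <;> omega

/-- The order and the element orders of such a group. -/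
theorem psl_facts {L : Type*} [Group L] [Finite L] {F : Type*} [Field F] [Fintype F]
    (hodd : Odd (Fintype.card F)) (e : L ≃* PSL(2, F)) (R : Subgroup L)
    (hR : Nat.card ↥R = 9) (h3 : ∀ r ∈ R, r ^ 3 = 1)
    (hA : ∀ A : Subgroup L, R ≤ A → (∀ a ∈ A, ∀ b ∈ A, a * b = b * a) → Nat.card ↥A ≤ 9) :
    Nat.card L = 360 ∧ ∀ x : L, orderOf x ≠ 20 := by
  have h9 : Fintype.card F = 9 := by
    refine card_field_eq_nine hodd (R.map e.toMonoidHom) ?_ ?_ ?_
    · rw [Subgroup.card_map_of_injective e.injective, hR]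
    · rintro _ ⟨r, hr, rfl⟩
      rw [← map_pow, h3 r hr, map_one]
    · intro A hRA hAc
      rw [← Subgroup.card_map_of_injective (f := e.symm.toMonoidHom) e.symm.injective (K := A)]
      refine hA _ ?_ ?_
      · intro r hr
        exact ⟨e r, hRA ⟨r, hr, rfl⟩, e.symm_apply_apply r⟩
      · rintro _ ⟨a, ha, rfl⟩ _ ⟨b, hb, rfl⟩
        rw [← map_mul, hAc a ha b hb, map_mul]
  refine ⟨?_, fun x hx => orderOf_ne_twenty h9 (e x) ?_⟩
  · have h2c := H6.card_psl2_odd (F := F) (H6.two_ne_of_odd rfl hodd) rfl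
    rw [Nat.card_congr e.toEquiv]
    rw [h9] at h2c
    norm_num at h2c
    omega
  · rw [← hx]
    exact orderOf_injective e.toMonoidHom e.injective x

end Cfsg.Agent.H85.C6
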